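import Cfsg.Agent.Lib.Helper35.Fi22Tr.X.Chk0

namespace Cfsg.Agent.Lib.Helper35.Fi22Tr.X

open Cfsg.Agent.Lib.Helper35

theorem wfix0 : ∀ i, i < 3510 → pwalk Fi22a.pt wl0.W i = i := fun i hi => fix_of_leaves' wls 3510 wu3 wl0.W (by simp [wls]) i hi
theorem wfix1 : ∀ i, i < 3510 → pwalk Fi22a.pt wl1.W i = i := fun i hi => fix_of_leaves' wls 3510 wu3 wl1.W (by simp [wls]) i hi
theorem wfix2 : ∀ i, i < 3510 → pwalk Fi22a.pt wl2.W i = i := fun i hi => fix_of_leaves' wls 3510 wu3 wl2.W (by simp [wls]) i hi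
theorem wfix3 : ∀ i, i < 3510 → pwalk Fi22a.pt wl3.W i = i := fun i hi => fix_of_leaves' wls 3510 wu3 wl3.W (by simp [wls]) i hi
theorem wfix4 : ∀ i, i < 3510 → pwalk Fi22a.pt wl4.W i = i := fun i hi => fix_of_leaves' wls 3510 wu3 wl4.W (by simp [wls]) i hi
theorem wfix5 : ∀ i, i < 3510 → pwalk Fi22a.pt wl5.W i = i := fun i hi => fix_of_leaves' wls 3510 wu3 wl5.W (by simp [wls]) i hi
theorem wfix6 : ∀ i, i < 3510 → pwalk Fi22a.pt wl6.W i = i := fun i hi => fix_of_leaves' wls 3510 wu3 wl6.W (by simp [wls]) i hi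
theorem wfix7 : ∀ i, i < 3510 → pwalk Fi22a.pt wl7.W i = i := fun i hi => fix_of_leaves' wls 3510 wu3 wl7.W (by simp [wls]) i hi
theorem wfix8 : ∀ i, i < 3510 → pwalk Fi22a.pt wl8.W i = i := fun i hi => fix_of_leaves' wls 3510 wu3 wl8.W (by simp [wls]) i hi
theorem wfix9 : ∀ i, i < 3510 → pwalk Fi22a.pt wl9.W i = i := fun i hi => fix_of_leaves' wls 3510 wu3 wl9.W (by simp [wls]) i hi
theorem wfix10 : ∀ i, i < 3510 → pwalk Fi22a.pt wl10.W i = i := fun i hi => fix_of_leaves' wls 3510 wu3 wl10.W (by simp [wls]) i hi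
theorem wfix11 : ∀ i, i < 3510 → pwalk Fi22a.pt wl11.W i = i := fun i hi => fix_of_leaves' wls 3510 wu3 wl11.W (by simp [wls]) i hi
theorem wfix12 : ∀ i, i < 3510 → pwalk Fi22a.pt wl12.W i = i := fun i hi => fix_of_leaves' wls 3510 wu3 wl12.W (by simp [wls]) i hi

end Cfsg.Agent.Lib.Helper35.Fi22Tr.X
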