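import Cfsg.Agent.Lib.Helper35.Fi22Tr.X.Data

set_option Elab.async false

namespace Cfsg.Agent.Lib.Helper35.Fi22Tr.X

open Cfsg.Agent.Lib.Helper35

theorem wc0 : allBelow (fun k => fw (Nat.add 0 k)) 878 = true := by decide +kernel
theorem wu0 : ∀ i, i < 878 → fw i = true := below_step fw 0 878 878 (below_zero fw) wc0 rfl
theorem wc1 : allBelow (fun k => fw (Nat.add 878 k)) 878 = true := by decide +kernel
theorem wu1 : ∀ i, i < 1756 → fw i = true := below_step fw 878 878 1756 wu0 wc1 rfl
theorem wc2 : allBelow (fun k => fw (Nat.add 1756 k)) 878 = true := by decide +kernel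
theorem wu2 : ∀ i, i < 2634 → fw i = true := below_step fw 1756 878 2634 wu1 wc2 rfl
theorem wc3 : allBelow (fun k => fw (Nat.add 2634 k)) 876 = true := by decide +kernel
theorem wu3 : ∀ i, i < 3510 → fw i = true := below_step fw 2634 876 3510 wu2 wc3 rfl

end Cfsg.Agent.Lib.Helper35.Fi22Tr.X
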